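import Mathlib
import Cfsg.Agent.Lib.Helper61.HHDefs

set_option autoImplicit false

/-! Ladder HHC, rungs COMMOP and BLOCK. -/

namespace Cfsg.Agent.Lib.Helper98.HHC

open Cfsg.Agent.Lib.Helper61.HH Module

universe u v w

variable {K : Type u} [Field K] {W : Type v} [AddCommGroup W] [Module K W]

/-- COMMOP -/
theorem exists_comm_op (ν : Module.End K W) (r : ℕ) (hr : ν ^ (r + 1) = 0)
    (φ : W →ₗ[K] K) (w : W) :
    ∃ T' : Module.End K W, T' * ν = ν * T' ∧ ∀ v, ν v = 0 → T' v = φ v • (ν ^ r) w := by
  refine ⟨∑ j ∈ Finset.range (r + 1), (φ.comp (ν ^ (r - j))).smulRight ((ν ^ j) w), ?_, ?_⟩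
  · apply LinearMap.ext
    intro v
    simp only [Module.End.mul_apply, LinearMap.sum_apply, LinearMap.smulRight_apply,
      LinearMap.comp_apply, map_sum, map_smul]
    rw [Finset.sum_range_succ', Finset.sum_range_succ]
    have h1 : (ν ^ (r - 0)) (ν v) = 0 := by
      rw [Nat.sub_zero, ← Module.End.mul_apply, ← pow_succ, hr]; rfl
    have h2 : ν ((ν ^ r) w) = 0 := by
      rw [← Module.End.mul_apply, ← pow_succ', hr]; rfl
    rw [h1, h2, map_zero, zero_smul, smul_zero, add_zero, add_zero]
    apply Finset.sum_congr rfl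
    intro j hj
    rw [Finset.mem_range] at hj
    have e1 : (ν ^ (r - (j + 1))) (ν v) = (ν ^ (r - j)) v := by
      rw [← Module.End.mul_apply, ← pow_succ]
      congr 2
      omega
    have e2 : ν ((ν ^ j) w) = (ν ^ (j + 1)) w := by
      rw [← Module.End.mul_apply, ← pow_succ']
    rw [e1, e2]
  · intro v hv
    simp only [LinearMap.sum_apply, LinearMap.smulRight_apply, LinearMap.comp_apply]
    rw [Finset.sum_range_succ, Nat.sub_self, pow_zero, Module.End.one_apply]
    rw [Finset.sum_eq_zero, zero_add]
    intro j hj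
    rw [Finset.mem_range] at hj
    have e : (ν ^ (r - j)) v = 0 := by
      obtain ⟨m, hm⟩ : ∃ m, r - j = m + 1 := ⟨r - j - 1, by omega⟩
      rw [hm, pow_succ, Module.End.mul_apply, hv, map_zero]
    rw [e, map_zero, zero_smul]

/-- BLOCK -/
theorem finrank_of_single_block [FiniteDimensional K W] (ν : Module.End K W) (r : ℕ)
    (hr : ν ^ (r + 1) = 0) (w : W) (hw : (ν ^ r) w ≠ 0)
    (hker : ∀ v, ν v = 0 → ∃ l : K, v = l • (ν ^ r) w) : finrank K W = r + 1 := by
  apply le_antisymm
  · -- spanning
    have key : ∀ i : ℕ, ∀ v : W, (ν ^ i) v = 0 →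
        v ∈ Submodule.span K (Set.range (fun j : Fin (r + 1) => (ν ^ (j : ℕ)) w)) := by
      intro i
      induction i with
      | zero =>
        intro v hv
        rw [pow_zero, Module.End.one_apply] at hv
        rw [hv]; exact Submodule.zero_mem _
      | succ i ih =>
        intro v hv
        by_cases hir : i ≤ r
        · rw [pow_succ', Module.End.mul_apply] at hv
          obtain ⟨l, hl⟩ := hker _ hv
          have h1 : (ν ^ i) (v - l • (ν ^ (r - i)) w) = 0 := by
            rw [map_sub, map_smul, ← Module.End.mul_apply, ← pow_add, hl]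
            rw [show i + (r - i) = r by omega, sub_self]
          have h2 := ih _ h1
          have h3 : (ν ^ (r - i)) w ∈
              Submodule.span K (Set.range (fun j : Fin (r + 1) => (ν ^ (j : ℕ)) w)) :=
            Submodule.subset_span ⟨⟨r - i, by omega⟩, rfl⟩
          have h4 := Submodule.add_mem _ h2 (Submodule.smul_mem _ l h3)
          rwa [sub_add_cancel] at h4
        · apply ih
          obtain ⟨m, hm⟩ : ∃ m, i = m + (r + 1) := ⟨i - (r + 1), by omega⟩
          rw [hm, pow_add, hr, mul_zero]; rfl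
    have htop : Submodule.span K (Set.range (fun j : Fin (r + 1) => (ν ^ (j : ℕ)) w)) = ⊤ := by
      rw [eq_top_iff]
      intro v _
      apply key (r + 1) v
      rw [hr]; rfl
    have h5 := finrank_range_le_card (R := K) (fun j : Fin (r + 1) => (ν ^ (j : ℕ)) w)
    rw [Set.finrank, htop, finrank_top, Fintype.card_fin] at h5
    exact h5
  · by_contra hcon
    push Not at hcon
    have h1 := Module.End.ker_pow_le_ker_pow_finrank ν (r + 1)
    rw [hr] at h1
    have h2 : (ν ^ finrank K W) w = 0 := by
      have : w ∈ LinearMap.ker (0 : Module.End K W) := by simp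
      exact h1 this
    apply hw
    obtain ⟨m, hm⟩ : ∃ m, r = m + finrank K W := ⟨r - finrank K W, by omega⟩
    rw [hm, pow_add, Module.End.mul_apply, h2, map_zero]

end Cfsg.Agent.Lib.Helper98.HHC
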