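import Mathlib
import Cfsg.Agent.Lib.Helper61.HHDefs

set_option autoImplicit false
set_option linter.unusedVariables false

/-! Ladder HHC, rungs TRACE1 and TRACE2. -/

namespace Cfsg.Agent.Lib.Helper98.HHC

open Cfsg.Agent.Lib.Helper61.HH Module Polynomial

universe u v w

variable {K : Type u} [Field K] {W : Type v} [AddCommGroup W] [Module K W]

theorem poly_geom (p : ℕ) [Fact p.Prime] [CharP K p] (s : ℕ) :
    ∑ j ∈ Finset.range (p ^ s), (X : K[X]) ^ j = (X - 1) ^ (p ^ s - 1) := by
  have hpos : 0 < p ^ s := pow_pos (Fact.out : p.Prime).pos s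
  have hX : (X - 1 : K[X]) ≠ 0 := X_sub_C_ne_zero (1 : K)
  apply mul_left_cancel₀ hX
  rw [mul_geom_sum, ← pow_succ', Nat.sub_add_cancel hpos, sub_pow_char_pow, one_pow]

theorem poly_geom' (p : ℕ) [Fact p.Prime] [CharP K p] (s : ℕ) (hs : 2 ≤ p ^ s) :
    ∑ j ∈ Finset.range (p ^ s), C (j : K) * (X : K[X]) ^ j = - (X * (X - 1) ^ (p ^ s - 2)) := by
  have h := congrArg (fun P => X * derivative P) (poly_geom (K := K) p s)
  simp only [derivative_sum, derivative_pow, derivative_sub, derivative_X,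
    derivative_one, sub_zero, mul_one, Finset.mul_sum] at h
  have hN : ((p ^ s - 1 : ℕ) : K) = -1 := by
    rw [Nat.cast_sub (by omega), Nat.cast_pow, Nat.cast_one]
    have hs0 : s ≠ 0 := by
      rintro rfl
      simp at hs
    rw [CharP.cast_eq_zero K p, zero_pow hs0, zero_sub]
  rw [hN, show p ^ s - 1 - 1 = p ^ s - 2 by omega] at h
  rw [show - (X * (X - 1 : K[X]) ^ (p ^ s - 2)) = X * (C (-1 : K) * (X - 1) ^ (p ^ s - 2)) by
    rw [C_neg, C_1]; ring, ← h]
  apply Finset.sum_congr rfl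
  intro j _
  rcases j with _ | j
  · simp
  · rw [Nat.add_sub_cancel, pow_succ]; ring

theorem end_geom (p : ℕ) [Fact p.Prime] [CharP K p] (s : ℕ) (T : Module.End K W) :
    ∑ j ∈ Finset.range (p ^ s), T ^ j = (T - 1) ^ (p ^ s - 1) := by
  have h := congrArg (aeval T) (poly_geom (K := K) p s)
  simpa using h

theorem end_geom' (p : ℕ) [Fact p.Prime] [CharP K p] (s : ℕ) (hs : 2 ≤ p ^ s)
    (T : Module.End K W) :
    ∑ j ∈ Finset.range (p ^ s), (j : K) • T ^ j = - (T * (T - 1) ^ (p ^ s - 2)) := by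
  have h := congrArg (aeval T) (poly_geom' (K := K) p s hs)
  simpa [Algebra.smul_def] using h

theorem Ti_pow_fix (T Ti : Module.End K W) (hiT : Ti * T = 1) (v : W) (hv : (T - 1) v = 0)
    (j : ℕ) : (Ti ^ j) v = v := by
  have hTv : T v = v := by
    rw [LinearMap.sub_apply, Module.End.one_apply, sub_eq_zero] at hv
    exact hv
  have hTiv : Ti v = v := by
    have := congrArg (fun f : Module.End K W => f v) hiT
    simp only [Module.End.mul_apply, Module.End.one_apply] at this
    rwa [hTv] at this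
  induction j with
  | zero => simp
  | succ j ih => rw [pow_succ, Module.End.mul_apply, hTiv, ih]

/-- TRACE1 -/
theorem trX_ker_one (p : ℕ) [Fact p.Prime] [CharP K p] (s : ℕ)
    (T Ti : Module.End K W) (hTi : T * Ti = 1) (hiT : Ti * T = 1)
    (S : Module.End K W) (v : W) (hv : (T - 1) v = 0) :
    trX T Ti (p ^ s) S v = ((T - 1) ^ (p ^ s - 1)) (S v) := by
  rw [← end_geom p s T]
  unfold trX
  simp only [LinearMap.sum_apply, Module.End.mul_apply]
  apply Finset.sum_congr rfl
  intro j _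
  rw [Ti_pow_fix T Ti hiT v hv j]

/-- TRACE2 -/
theorem trX_ker_two (p : ℕ) [Fact p.Prime] [CharP K p] (s : ℕ) (hs : 2 ≤ p ^ s)
    (T Ti : Module.End K W) (hTi : T * Ti = 1) (hiT : Ti * T = 1)
    (S : Module.End K W) (v : W) (hv : (T - 1) ((T - 1) v) = 0) :
    trX T Ti (p ^ s) S v
      = ((T - 1) ^ (p ^ s - 1)) (S v) + T (((T - 1) ^ (p ^ s - 2)) (S ((T - 1) v))) := by
  obtain ⟨n, hn⟩ : ∃ n, n = (T - 1) v := ⟨_, rfl⟩
  rw [← hn] at hv ⊢
  have hTv : T v = v + n := by
    rw [hn, LinearMap.sub_apply, Module.End.one_apply]; abel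
  have hTiv : Ti v = v - n := by
    have h1 := congrArg (fun f : Module.End K W => f v) hiT
    simp only [Module.End.mul_apply, Module.End.one_apply] at h1
    rw [hTv, map_add] at h1
    have h2 := Ti_pow_fix T Ti hiT n hv 1
    rw [pow_one] at h2
    rw [h2] at h1
    exact eq_sub_of_add_eq h1
  have hpow : ∀ j : ℕ, (Ti ^ j) v = v - (j : K) • n := by
    intro j
    induction j with
    | zero => simp
    | succ j ih =>
      rw [pow_succ, Module.End.mul_apply, hTiv, map_sub, ih, Ti_pow_fix T Ti hiT n hv j]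
      push_cast
      rw [add_smul, one_smul]; abel
  have e1 : ((T - 1) ^ (p ^ s - 1)) (S v) = ∑ j ∈ Finset.range (p ^ s), (T ^ j) (S v) := by
    rw [← end_geom p s T, LinearMap.sum_apply]
  have e2 : T (((T - 1) ^ (p ^ s - 2)) (S n)) =
      - ∑ j ∈ Finset.range (p ^ s), (j : K) • (T ^ j) (S n) := by
    have h := congrArg (fun f : Module.End K W => f (S n)) (end_geom' p s hs T)
    simp only [LinearMap.sum_apply, LinearMap.smul_apply, LinearMap.neg_apply,
      Module.End.mul_apply] at h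
    rw [h, neg_neg]
  rw [e1, e2, ← sub_eq_add_neg, ← Finset.sum_sub_distrib]
  unfold trX
  simp only [LinearMap.sum_apply, Module.End.mul_apply]
  apply Finset.sum_congr rfl
  intro j _
  rw [hpow j, map_sub, map_sub, map_smul, map_smul]

end Cfsg.Agent.Lib.Helper98.HHC
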