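import Cfsg.Agent.Lib.Helper78.Cyc1Defs

set_option autoImplicit false

/-! Ladder CYC1 (helper78, S4649), rung LMU (helper98). -/

namespace Cfsg.Agent.Lib.Helper98.Cyc1

open Module Cfsg.Agent.Lib.Helper78.Cyc1

variable {F A : Type*} [Field F] [Ring A] [Algebra F A]

theorem lmu_J0_mul_le (J : Ideal A) (e : A) : J0 F J e * J0 F J e ≤ J0 F J e := by
  rw [Submodule.mul_le]
  rintro m ⟨hm, hm1, hm2⟩ n ⟨hn, hn1, hn2⟩
  exact ⟨J.mul_mem_left _ hn, by rw [← mul_assoc, hm1], by rw [mul_assoc, hn2]⟩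

theorem lmu_Kmu_le (J : Ideal A) (e x y : A) (hx : x ∈ J0 F J e) (hy : y ∈ J0 F J e) (μ : F) :
    Kmu J e x y μ ≤ J0 F J e := by
  unfold Kmu
  refine sup_le (lmu_J0_mul_le J e) ?_
  rw [Submodule.span_singleton_le_iff_mem]
  exact (J0 F J e).sub_mem hx ((J0 F J e).smul_mem μ hy)

theorem Lmu_mul_mem (J : Ideal A) [J.IsTwoSided] (e : A) (he : e * e = e) (x y : A)
    (hx : x ∈ J0 F J e) (hy : y ∈ J0 F J e) (μ : F) : ∀ a ∈ Lmu J e x y μ, a * e ∈ J := by
  intro a ha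
  unfold Lmu Ideal.span at ha
  induction ha using Submodule.span_induction with
  | mem a ha =>
    rcases ha with rfl | ha
    · rw [sub_mul, one_mul, he, sub_self]
      exact J.zero_mem
    · obtain ⟨h1, -, h3⟩ := lmu_Kmu_le J e x y hx hy μ ha
      rw [h3]; exact h1
  | zero => rw [zero_mul]; exact J.zero_mem
  | add a b _ _ iha ihb => rw [add_mul]; exact J.add_mem iha ihb
  | smul r a _ iha =>
    rw [smul_eq_mul, mul_assoc]
    exact J.mul_mem_left _ iha

end Cfsg.Agent.Lib.Helper98.Cyc1
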