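import Mathlib

set_option autoImplicit false

/-! Ladder CYC1 (helper78, S4649), rung UNI (helper98). -/

namespace Cfsg.Agent.Lib.Helper98.Cyc1

open Module

variable {F A : Type*} [Field F] [Ring A] [Algebra F A]

theorem uni_key (S : Submodule F A) (x : A) (hx : x ∈ S)
    (h : S ≤ Submodule.span F {x} ⊔ S * S) (m : ℕ) :
    S ^ (m + 1) ≤ Submodule.span F {x ^ (m + 1)} ⊔ S ^ (m + 2) := by
  induction m with
  | zero => simpa [pow_two] using h
  | succ m ih =>
    have hQ : Submodule.span F {x ^ (m + 1)} ≤ S ^ (m + 1) := by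
      rw [Submodule.span_singleton_le_iff_mem]
      exact Submodule.pow_mem_pow S hx (m + 1)
    have h1 : Submodule.span F {x ^ (m + 1)} * S
        ≤ Submodule.span F {x ^ (m + 1 + 1)} ⊔ S ^ (m + 1 + 2) := by
      calc Submodule.span F {x ^ (m + 1)} * S
          ≤ Submodule.span F {x ^ (m + 1)} * (Submodule.span F {x} ⊔ S * S) :=
            mul_le_mul' le_rfl h
        _ = Submodule.span F {x ^ (m + 1)} * Submodule.span F {x}
            ⊔ Submodule.span F {x ^ (m + 1)} * (S * S) := Submodule.mul_sup _ _ _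
        _ ≤ Submodule.span F {x ^ (m + 1 + 1)} ⊔ S ^ (m + 1 + 2) := by
            apply sup_le_sup
            · rw [Submodule.span_mul_span, Set.singleton_mul_singleton, ← pow_succ]
            · calc Submodule.span F {x ^ (m + 1)} * (S * S) ≤ S ^ (m + 1) * (S * S) :=
                    mul_le_mul' hQ le_rfl
                _ = S ^ (m + 1 + 2) := by rw [← mul_assoc, ← pow_succ, ← pow_succ]
    calc S ^ (m + 1 + 1) = S ^ (m + 1) * S := pow_succ _ _
      _ ≤ (Submodule.span F {x ^ (m + 1)} ⊔ S ^ (m + 2)) * S := mul_le_mul' ih le_rfl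
      _ = Submodule.span F {x ^ (m + 1)} * S ⊔ S ^ (m + 2) * S := Submodule.sup_mul _ _ _
      _ ≤ (Submodule.span F {x ^ (m + 1 + 1)} ⊔ S ^ (m + 1 + 2)) ⊔ S ^ (m + 1 + 2) :=
          sup_le_sup h1 (le_of_eq (pow_succ _ _).symm)
      _ = Submodule.span F {x ^ (m + 1 + 1)} ⊔ S ^ (m + 1 + 2) := by rw [sup_assoc, sup_idem]

theorem comm_of_gen (S : Submodule F A) (N : ℕ) (hN : S ^ N = ⊥) (x : A) (hx : x ∈ S)
    (h : S ≤ Submodule.span F {x} ⊔ S * S) : ∀ a ∈ S, ∀ b ∈ S, a * b = b * a := by
  have hP : ∀ m : ℕ, Submodule.span F {x ^ m} ≤ Subalgebra.toSubmodule (Algebra.adjoin F {x}) := by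
    intro m
    rw [Submodule.span_singleton_le_iff_mem]
    exact (Algebra.adjoin F {x}).pow_mem (Algebra.self_mem_adjoin_singleton F x) m
  have h2 : ∀ m : ℕ, S ≤ Subalgebra.toSubmodule (Algebra.adjoin F {x}) ⊔ S ^ (m + 1) := by
    intro m
    induction m with
    | zero => rw [zero_add, pow_one]; exact le_sup_right
    | succ m ih =>
      refine ih.trans (sup_le le_sup_left ?_)
      exact (uni_key S x hx h m).trans (sup_le ((hP _).trans le_sup_left) le_sup_right)
  have h3 : S ≤ Subalgebra.toSubmodule (Algebra.adjoin F {x}) := by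
    have := h2 N
    rwa [pow_succ, hN, Submodule.bot_mul, sup_bot_eq] at this
  intro a ha b hb
  have ha' : a ∈ Algebra.adjoin F {x} := h3 ha
  have hb' : b ∈ Algebra.adjoin F {x} := h3 hb
  have c1 : Commute x b := Algebra.commute_of_mem_adjoin_self hb'
  exact (Algebra.commute_of_mem_adjoin_singleton_of_commute ha' c1.symm).symm.eq

end Cfsg.Agent.Lib.Helper98.Cyc1
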