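import Mathlib

set_option autoImplicit false

namespace Cfsg.Agent.Lib.Helper98.Jordan

open scoped InnerProductSpace ComplexConjugate

variable {V : Type*} [NormedAddCommGroup V] [InnerProductSpace ℂ V] [FiniteDimensional ℂ V]
variable {G : Type*} [Group G]

/-- a homomorphism into the bounded operators preserving the inner product -/
def IsUnitaryHom (T : G →* (V →L[ℂ] V)) : Prop := ∀ g v w, ⟪T g v, T g w⟫_ℂ = ⟪v, w⟫_ℂ

variable {T : G →* (V →L[ℂ] V)}

omit [FiniteDimensional ℂ V] in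
theorem IsUnitaryHom.norm_apply (hT : IsUnitaryHom T) (g : G) (v : V) : ‖T g v‖ = ‖v‖ := by
  have h := hT g v v
  rw [inner_self_eq_norm_sq_to_K, inner_self_eq_norm_sq_to_K] at h
  have h2 : ‖T g v‖ ^ 2 = ‖v‖ ^ 2 := by exact_mod_cast h
  exact (sq_eq_sq₀ (norm_nonneg _) (norm_nonneg _)).mp h2

omit [FiniteDimensional ℂ V] in
theorem IsUnitaryHom.norm_le_one (hT : IsUnitaryHom T) (g : G) : ‖T g‖ ≤ 1 :=
  ContinuousLinearMap.opNorm_le_bound _ zero_le_one (fun v => by rw [hT.norm_apply, one_mul])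

omit [FiniteDimensional ℂ V] in
theorem apply_inv_apply (T : G →* (V →L[ℂ] V)) (g : G) (v : V) : T g (T g⁻¹ v) = v := by
  have : T g * T g⁻¹ = 1 := by rw [← map_mul, mul_inv_cancel, map_one]
  exact congrArg (fun L : V →L[ℂ] V => L v) this

omit [FiniteDimensional ℂ V] in
theorem inv_apply_apply (T : G →* (V →L[ℂ] V)) (g : G) (v : V) : T g⁻¹ (T g v) = v := by
  have : T g⁻¹ * T g = 1 := by rw [← map_mul, inv_mul_cancel, map_one]
  exact congrArg (fun L : V →L[ℂ] V => L v) this

omit [FiniteDimensional ℂ V] in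
theorem comm_bound (hT : IsUnitaryHom T) (a b : G) (α β : ℂ) :
    ‖T (a * b * a⁻¹ * b⁻¹) - 1‖ ≤ 2 * ‖T a - α • (1 : V →L[ℂ] V)‖ * ‖T b - β • (1 : V →L[ℂ] V)‖ := by
  set X := T a - α • (1 : V →L[ℂ] V) with hX
  set Y := T b - β • (1 : V →L[ℂ] V) with hY
  have h1 : T (a * b * a⁻¹ * b⁻¹) - 1 = (X * Y - Y * X) * (T a⁻¹ * T b⁻¹) := by
    have e1 : X * Y - Y * X = T a * T b - T b * T a := by
      rw [hX, hY]
      simp only [sub_mul, mul_sub, smul_mul_assoc, mul_smul_comm, one_mul, mul_one, smul_sub,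
        smul_smul, mul_comm α β]
      abel
    rw [e1, sub_mul, ← map_mul, ← map_mul, ← map_mul, ← map_mul, ← map_mul]
    congr 1
    · congr 1
      group
    · rw [← map_one T]
      congr 1
      group
  rw [h1]
  calc ‖(X * Y - Y * X) * (T a⁻¹ * T b⁻¹)‖ ≤ ‖X * Y - Y * X‖ * ‖T a⁻¹ * T b⁻¹‖ := norm_mul_le _ _
    _ ≤ (‖X‖ * ‖Y‖ + ‖Y‖ * ‖X‖) * (1 * 1) := by
        apply mul_le_mul
        · exact (norm_sub_le _ _).trans (add_le_add (norm_mul_le _ _) (norm_mul_le _ _))
        · exact (norm_mul_le _ _).trans (mul_le_mul (hT.norm_le_one _) (hT.norm_le_one _)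
            (norm_nonneg _) zero_le_one)
        · exact norm_nonneg _
        · positivity
    _ = 2 * ‖X‖ * ‖Y‖ := by ring

omit [FiniteDimensional ℂ V] in
theorem conj_bound (hT : IsUnitaryHom T) (x g : G) (γ : ℂ) :
    ‖T (x * g * x⁻¹) - γ • (1 : V →L[ℂ] V)‖ ≤ ‖T g - γ • (1 : V →L[ℂ] V)‖ := by
  have h1 : T (x * g * x⁻¹) - γ • (1 : V →L[ℂ] V) = T x * (T g - γ • (1 : V →L[ℂ] V)) * T x⁻¹ := by
    rw [mul_sub, sub_mul, ← map_mul, ← map_mul, mul_smul_comm, smul_mul_assoc, mul_one, ← map_mul,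
      mul_inv_cancel, map_one]
  rw [h1]
  calc ‖T x * (T g - γ • (1 : V →L[ℂ] V)) * T x⁻¹‖
      ≤ ‖T x‖ * ‖T g - γ • (1 : V →L[ℂ] V)‖ * ‖T x⁻¹‖ :=
        (norm_mul_le _ _).trans (mul_le_mul_of_nonneg_right (norm_mul_le _ _) (norm_nonneg _))
    _ ≤ 1 * ‖T g - γ • (1 : V →L[ℂ] V)‖ * 1 := by
        apply mul_le_mul _ (hT.norm_le_one _) (norm_nonneg _) (by positivity)
        exact mul_le_mul_of_nonneg_right (hT.norm_le_one _) (norm_nonneg _)
    _ = _ := by ring

/-- the underlying endomorphism -/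
def toEnd (T : G →* (V →L[ℂ] V)) (g : G) : Module.End ℂ V := (T g : V →ₗ[ℂ] V)

omit [FiniteDimensional ℂ V] in
theorem toEnd_apply (g : G) (v : V) : toEnd T g v = T g v := rfl

omit [FiniteDimensional ℂ V] in
theorem toEnd_pow (g : G) (m : ℕ) : (toEnd T g) ^ m = toEnd T (g ^ m) := by
  ext v
  induction m generalizing v with
  | zero => simp [toEnd]
  | succ m ih =>
    rw [pow_succ, pow_succ, Module.End.mul_apply, ih, toEnd_apply, toEnd_apply, toEnd_apply, map_mul]
    rfl

omit [FiniteDimensional ℂ V] in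
theorem isSemisimple_toEnd [Finite G] (g : G) : (toEnd T g).IsSemisimple := by
  have hm : 0 < orderOf g := orderOf_pos g
  apply Module.End.isSemisimple_of_squarefree_aeval_eq_zero
    (p := (Polynomial.X ^ orderOf g - 1 : Polynomial ℂ))
  · apply Polynomial.Separable.squarefree
    apply Polynomial.separable_X_pow_sub_C (1 : ℂ) _ one_ne_zero
    exact_mod_cast hm.ne'
  · simp only [map_sub, map_pow, Polynomial.aeval_X, map_one]
    rw [toEnd_pow, pow_orderOf_eq_one]
    ext v
    simp [toEnd]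

theorem iSup_eigenspace_toEnd [Finite G] (g : G) :
    ⨆ μ : ℂ, (toEnd T g).eigenspace μ = ⊤ :=
  (isSemisimple_toEnd g).iSup_eigenspace_eq_top

omit [FiniteDimensional ℂ V] in
/-- range of `A - λ` is orthogonal to the `λ`-eigenspace -/
theorem inner_sub_eigen (hT : IsUnitaryHom T) (a : G) (l : ℂ) (w u : V) (hu : T a u = l • u) :
    ⟪T a w - l • w, u⟫_ℂ = 0 := by
  by_cases hu0 : u = 0
  · simp [hu0]
  have hl : ‖l‖ = 1 := by
    have h1 := hT.norm_apply a u
    rw [hu, norm_smul] at h1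
    have h2 : 0 < ‖u‖ := norm_pos_iff.mpr hu0
    nlinarith
  have hl0 : l ≠ 0 := by
    intro h
    rw [h, norm_zero] at hl
    exact zero_ne_one hl
  have h1 : ⟪T a w, l • u⟫_ℂ = ⟪w, u⟫_ℂ := by rw [← hu, hT]
  rw [inner_smul_right] at h1
  rw [inner_sub_left, inner_smul_left, ← Complex.inv_eq_conj hl, ← h1]
  field_simp
  ring

theorem commute_of_commute_conj [Finite G] (hT : IsUnitaryHom T) (a c : G) (γ : ℂ)
    (hc : ‖T c - γ • (1 : V →L[ℂ] V)‖ < 1) (hcomm : Commute a (c * a * c⁻¹)) :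
    ∀ v, T a (T c v) = T c (T a v) := by
  have key : ∀ (l : ℂ) (v : V), T a v = l • v → T a (T c v) = l • T c v := by
    intro l v hv
    set x := T a (T c v) - l • T c v with hx
    set u := T c⁻¹ x with hu
    have hA' : ∀ y, T (c * a * c⁻¹) (T a y) = T a (T (c * a * c⁻¹) y) := by
      intro y
      have := congrArg (fun g => T g y) hcomm.eq
      simp only [map_mul] at this
      simpa [map_mul] using this.symm
    have h1 : T (c * a * c⁻¹) (T c v) = l • T c v := by
      rw [map_mul, map_mul]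
      change T c (T a (T c⁻¹ (T c v))) = _
      rw [inv_apply_apply, hv, map_smul]
    have h2 : T (c * a * c⁻¹) x = l • x := by
      rw [hx, map_sub, hA', h1, map_smul, map_smul, h1, smul_sub]
    have h3 : T a u = l • u := by
      have : T c⁻¹ (T (c * a * c⁻¹) x) = T a u := by
        rw [map_mul, map_mul]
        change T c⁻¹ (T c (T a (T c⁻¹ x))) = _
        rw [inv_apply_apply]
    
      rw [← this, h2, map_smul]
    have h4 : ⟪x, u⟫_ℂ = 0 := inner_sub_eigen hT a l (T c v) u h3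
    have h5 : T c u = x := apply_inv_apply T c x
    have h6 : u = 0 := by
      by_contra hu0
      have hpos : 0 < ‖u‖ := norm_pos_iff.mpr hu0
      have e1 : ‖T c u - γ • u‖ ≤ ‖T c - γ • (1 : V →L[ℂ] V)‖ * ‖u‖ := by
        have := (T c - γ • (1 : V →L[ℂ] V)).le_opNorm u
        simpa using this
      have e2 : ‖T c u - γ • u‖ ^ 2 = ‖T c u‖ ^ 2 + ‖γ • u‖ ^ 2 := by
        rw [@norm_sub_sq ℂ, h5, inner_smul_right, h4]
        simp
      rw [hT.norm_apply] at e2
      have e3 : ‖T c u - γ • u‖ < ‖u‖ := by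
        calc _ ≤ _ := e1
          _ < 1 * ‖u‖ := mul_lt_mul_of_pos_right hc hpos
          _ = ‖u‖ := one_mul _
      have e4 : ‖T c u - γ • u‖ ^ 2 < ‖u‖ ^ 2 := by
        apply pow_lt_pow_left₀ e3 (norm_nonneg _) (by norm_num)
      have e5 : 0 ≤ ‖γ • u‖ ^ 2 := by positivity
      linarith
    have h7 : x = 0 := by rw [← h5, h6, map_zero]
    exact sub_eq_zero.mp h7
  intro v
  have hv : v ∈ (⊤ : Submodule ℂ V) := trivial
  rw [← iSup_eigenspace_toEnd (T := T) a] at hv
  induction hv using Submodule.iSup_induction' with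
  | mem l x hx =>
    have hx' : T a x = l • x := Module.End.mem_eigenspace_iff.mp hx
    rw [key l x hx', hx', map_smul]
  | zero => simp
  | add x y _ _ hx hy => simp only [map_add, hx, hy]

/-- elements whose operator is within `1/2` of a scalar -/
def Small (T : G →* (V →L[ℂ] V)) (g : G) : Prop := ∃ γ : ℂ, ‖T g - γ • (1 : V →L[ℂ] V)‖ < 1 / 2

omit [FiniteDimensional ℂ V] in
theorem commute_of_forall (hinj : Function.Injective T) (a c : G)
    (h : ∀ v, T a (T c v) = T c (T a v)) : Commute a c := by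
  apply hinj
  rw [map_mul, map_mul]
  ext v
  exact h v

omit [FiniteDimensional ℂ V] in
theorem commute_conj_of_commute_commutator (a c : G) (h : Commute a (a * c * a⁻¹ * c⁻¹)) :
    Commute a (c * a * c⁻¹) := by
  have h1 : Commute a (a⁻¹ * (a * c * a⁻¹ * c⁻¹)) := (Commute.refl a).inv_right.mul_right h
  have h2 : a⁻¹ * (a * c * a⁻¹ * c⁻¹) = (c * a * c⁻¹)⁻¹ := by group
  rw [h2] at h1
  exact Commute.inv_right_iff.mp h1

theorem commute_of_small_of_near_one [Finite G] (hT : IsUnitaryHom T) (hinj : Function.Injective T)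
    (a : G) (ha : Small T a) (c : G) (hc : ‖T c - 1‖ < 1 / 2) : Commute a c := by
  obtain ⟨α, hα⟩ := ha
  by_contra hcon
  let Y : Set G := {c | ‖T c - 1‖ < 1 / 2 ∧ ¬ Commute a c}
  obtain ⟨c0, ⟨hc0, hc0'⟩, hmin⟩ := Set.exists_min_image Y (fun c => ‖T c - 1‖) (Set.toFinite _)
    ⟨c, hc, hcon⟩
  have hpos : 0 < ‖T c0 - 1‖ := by
    rw [norm_pos_iff, sub_ne_zero]
    intro h
    have : c0 = 1 := hinj (by rw [h, map_one])
    exact hc0' (by rw [this]; exact Commute.one_right a)
  have hb := comm_bound hT a c0 α 1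
  rw [one_smul] at hb
  have hlt : ‖T (a * c0 * a⁻¹ * c0⁻¹) - 1‖ < ‖T c0 - 1‖ := by
    calc _ ≤ _ := hb
      _ < 2 * (1 / 2) * ‖T c0 - 1‖ := by
          apply mul_lt_mul_of_pos_right _ hpos
          linarith
      _ = _ := by ring
  have hcomm : Commute a (a * c0 * a⁻¹ * c0⁻¹) := by
    by_contra hn
    have := hmin _ ⟨hlt.trans hc0, hn⟩
    exact absurd hlt (not_lt.mpr this)
  apply hc0'
  apply commute_of_forall hinj
  apply commute_of_commute_conj hT a c0 1 _ (commute_conj_of_commute_commutator a c0 hcomm)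
  rw [one_smul]
  linarith

theorem commute_of_small [Finite G] (hT : IsUnitaryHom T) (hinj : Function.Injective T)
    (a b : G) (ha : Small T a) (hb : Small T b) : Commute a b := by
  obtain ⟨β, hβ⟩ := hb
  have ha' := ha
  obtain ⟨α, hα⟩ := ha'
  have h1 := comm_bound hT a b α β
  have h2 : ‖T (a * b * a⁻¹ * b⁻¹) - 1‖ < 1 / 2 := by
    have e1 := norm_nonneg (T a - α • (1 : V →L[ℂ] V))
    have e2 := norm_nonneg (T b - β • (1 : V →L[ℂ] V))
    nlinarith
  have h3 := commute_of_small_of_near_one hT hinj a ha _ h2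
  apply commute_of_forall hinj
  apply commute_of_commute_conj hT a b β _ (commute_conj_of_commute_commutator a b h3)
  linarith

omit [FiniteDimensional ℂ V] in
theorem small_conj (hT : IsUnitaryHom T) (x g : G) (hg : Small T g) : Small T (x * g * x⁻¹) := by
  obtain ⟨γ, hγ⟩ := hg
  exact ⟨γ, (conj_bound hT x g γ).trans_lt hγ⟩

/-- the subgroup generated by the small elements -/
def smallSubgroup (T : G →* (V →L[ℂ] V)) : Subgroup G := Subgroup.closure {g | Small T g}

omit [FiniteDimensional ℂ V] in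
theorem smallSubgroup_normal (hT : IsUnitaryHom T) : (smallSubgroup T).Normal := by
  constructor
  intro n hn x
  unfold smallSubgroup at hn ⊢
  induction hn using Subgroup.closure_induction with
  | mem g hg => exact Subgroup.subset_closure (small_conj hT x g hg)
  | one => simp
  | mul g h _ _ ihg ihh =>
    have : x * (g * h) * x⁻¹ = (x * g * x⁻¹) * (x * h * x⁻¹) := by group
    rw [this]
    exact Subgroup.mul_mem _ ihg ihh
  | inv g _ ih =>
    have : x * g⁻¹ * x⁻¹ = (x * g * x⁻¹)⁻¹ := by group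
    rw [this]
    exact Subgroup.inv_mem _ ih

theorem smallSubgroup_comm [Finite G] (hT : IsUnitaryHom T) (hinj : Function.Injective T) :
    ∀ x ∈ smallSubgroup T, ∀ y ∈ smallSubgroup T, x * y = y * x := by
  intro x hx y hy
  have hle : smallSubgroup T ≤ Subgroup.centralizer (smallSubgroup T : Set G) := by
    unfold smallSubgroup
    rw [Subgroup.closure_le, Subgroup.centralizer_closure]
    intro g hg
    simp only [SetLike.mem_coe]
    intro h hh
    exact (commute_of_small hT hinj h g hh hg).eq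
  exact (Subgroup.mem_centralizer_iff.mp (hle hy) x hx)

omit [FiniteDimensional ℂ V] in
theorem star_apply [CompleteSpace V] (hT : IsUnitaryHom T) (g : G) : star (T g) = T g⁻¹ := by
  rw [ContinuousLinearMap.star_eq_adjoint, eq_comm, ContinuousLinearMap.eq_adjoint_iff]
  intro x y
  rw [← hT g (T g⁻¹ x) y, apply_inv_apply]

omit [FiniteDimensional ℂ V] in
theorem isStarNormal_sub [CompleteSpace V] (hT : IsUnitaryHom T) (g : G) (γ : ℂ) :
    IsStarNormal (T g - γ • (1 : V →L[ℂ] V)) := by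
  constructor
  rw [star_sub, star_smul, star_one, star_apply hT]
  have h1 : T g⁻¹ * T g = 1 := by rw [← map_mul, inv_mul_cancel, map_one]
  have h2 : T g * T g⁻¹ = 1 := by rw [← map_mul, mul_inv_cancel, map_one]
  unfold Commute SemiconjBy
  simp only [sub_mul, mul_sub, smul_mul_assoc, mul_smul_comm, one_mul, mul_one, h1, h2, smul_sub,
    smul_smul, mul_comm γ (star γ)]
  abel

theorem norm_lt_of_spectrum (hT : IsUnitaryHom T) (g : G) (γ : ℂ) (r : ℝ) (hr : 0 < r)
    (h : ∀ z ∈ spectrum ℂ (T g), ‖z - γ‖ < r) : ‖T g - γ • (1 : V →L[ℂ] V)‖ < r := by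
  have : CompleteSpace V := FiniteDimensional.complete ℂ V
  rcases subsingleton_or_nontrivial V with hs | hn
  · have : T g - γ • (1 : V →L[ℂ] V) = 0 := by
      ext v
      exact Subsingleton.elim _ _
    rw [this, norm_zero]
    exact hr
  · have hnorm := isStarNormal_sub hT g γ
    obtain ⟨z, hz, hzr⟩ := spectrum.exists_nnnorm_eq_spectralRadius (T g - γ • (1 : V →L[ℂ] V))
    rw [IsStarNormal.spectralRadius_eq_nnnorm] at hzr
    have h1 : ‖z‖₊ = ‖T g - γ • (1 : V →L[ℂ] V)‖₊ := by exact_mod_cast hzr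
    have h2 : ‖z‖ = ‖T g - γ • (1 : V →L[ℂ] V)‖ := congrArg NNReal.toReal h1
    rw [← h2]
    have h3 : z + γ ∈ spectrum ℂ (T g) := by
      rw [spectrum.add_mem_iff, Algebra.algebraMap_eq_smul_one, neg_add_eq_sub]
      exact hz
    have := h _ h3
    simpa using this

theorem exists_of_mem_spectrum {ι : Type*} (L : V →L[ℂ] V) (W : ι → Submodule ℂ V)
    (hW : ⨆ i, W i = ⊤) (c : ι → ℂ) (hc : ∀ i, ∀ v ∈ W i, L v = c i • v) (z : ℂ)
    (hz : z ∈ spectrum ℂ L) : ∃ i, W i ≠ ⊥ ∧ z = c i := by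
  have : CompleteSpace V := FiniteDimensional.complete ℂ V
  by_contra hcon
  push Not at hcon
  apply (spectrum.mem_iff.mp hz)
  rw [ContinuousLinearMap.isUnit_iff_bijective]
  set M : V →L[ℂ] V := algebraMap ℂ (V →L[ℂ] V) z - L with hM
  have hMv : ∀ v, M v = z • v - L v := by
    intro v
    rw [hM, Algebra.algebraMap_eq_smul_one]
    simp
  have hsurj : Function.Surjective (M : V →ₗ[ℂ] V) := by
    rw [← LinearMap.range_eq_top, eq_top_iff, ← hW]
    apply iSup_le
    intro i v hv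
    by_cases hi : W i = ⊥
    · rw [hi, Submodule.mem_bot] at hv
      rw [hv]
      exact Submodule.zero_mem _
    · have hne : z - c i ≠ 0 := sub_ne_zero.mpr (hcon i hi)
      refine ⟨(z - c i)⁻¹ • v, ?_⟩
      change M ((z - c i)⁻¹ • v) = v
      rw [map_smul, hMv, hc i v hv, ← sub_smul, smul_smul, inv_mul_cancel₀ hne, one_smul]
  exact ⟨LinearMap.injective_iff_surjective.mpr hsurj, hsurj⟩

section arcs

open Real

theorem arc_aux (z : ℂ) : ⌈(Complex.arg z + π) * (6 / π)⌉₊ - 1 < 12 := by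
  have hpi := Real.pi_pos
  have h1 : (Complex.arg z + π) * (6 / π) ≤ 12 := by
    have := Complex.arg_le_pi z
    rw [← mul_div_assoc, div_le_iff₀ hpi]
    nlinarith
  have h2 : ⌈(Complex.arg z + π) * (6 / π)⌉₊ ≤ 12 := Nat.ceil_le.mpr (by exact_mod_cast h1)
  have h3 : 0 < (Complex.arg z + π) * (6 / π) := by
    have := Complex.neg_pi_lt_arg z
    apply mul_pos (by linarith) (by positivity)
  have h4 : 0 < ⌈(Complex.arg z + π) * (6 / π)⌉₊ := Nat.ceil_pos.mpr h3
  omega

/-- index of the arc of length `π/6` containing the argument of `z` -/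
noncomputable def arcIdx (z : ℂ) : Fin 12 := ⟨⌈(Complex.arg z + π) * (6 / π)⌉₊ - 1, arc_aux z⟩

theorem abs_arg_sub_lt (z₁ z₂ : ℂ) (h : arcIdx z₁ = arcIdx z₂) :
    |Complex.arg z₁ - Complex.arg z₂| < π / 6 := by
  have hpi := Real.pi_pos
  have pos : ∀ z : ℂ, 0 < (Complex.arg z + π) * (6 / π) := by
    intro z
    have := Complex.neg_pi_lt_arg z
    apply mul_pos (by linarith) (by positivity)
  have hc : ∀ z : ℂ, 0 < ⌈(Complex.arg z + π) * (6 / π)⌉₊ := fun z => Nat.ceil_pos.mpr (pos z)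
  have h' : ⌈(Complex.arg z₁ + π) * (6 / π)⌉₊ - 1 = ⌈(Complex.arg z₂ + π) * (6 / π)⌉₊ - 1 :=
    congrArg Fin.val h
  have heq : ⌈(Complex.arg z₁ + π) * (6 / π)⌉₊ = ⌈(Complex.arg z₂ + π) * (6 / π)⌉₊ := by
    have := hc z₁
    have := hc z₂
    omega
  have a1 := Nat.le_ceil ((Complex.arg z₁ + π) * (6 / π))
  have a2 := Nat.le_ceil ((Complex.arg z₂ + π) * (6 / π))
  have b1 := Nat.ceil_lt_add_one (pos z₁).le
  have b2 := Nat.ceil_lt_add_one (pos z₂).le
  rw [heq] at a1 b1
  have e : (Complex.arg z₁ + π) * (6 / π) - (Complex.arg z₂ + π) * (6 / π) =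
      (Complex.arg z₁ - Complex.arg z₂) * (6 / π) := by ring
  have c1 : (Complex.arg z₁ - Complex.arg z₂) * (6 / π) < 1 := by linarith
  have c2 : -1 < (Complex.arg z₁ - Complex.arg z₂) * (6 / π) := by linarith
  rw [← mul_div_assoc, div_lt_iff₀ hpi] at c1
  rw [← mul_div_assoc, lt_div_iff₀ hpi] at c2
  rw [abs_lt]
  constructor <;> linarith

theorem norm_exp_sub_lt (δ : ℝ) (hδ : |δ| < π / 6) :
    ‖Complex.exp (δ * Complex.I) - ((√3 / 2 : ℝ) : ℂ)‖ < 1 / 2 := by
  have hpi := Real.pi_pos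
  have hcos : √3 / 2 < cos δ := by
    rw [← Real.cos_pi_div_six, ← Real.cos_abs δ]
    exact Real.cos_lt_cos_of_nonneg_of_le_pi (abs_nonneg _) (by linarith) hδ
  have h3 : √3 ^ 2 = 3 := Real.sq_sqrt (by norm_num)
  have h3' : 0 < √3 := Real.sqrt_pos.mpr (by norm_num)
  have hsq : ‖Complex.exp (δ * Complex.I) - ((√3 / 2 : ℝ) : ℂ)‖ ^ 2 < (1 / 2) ^ 2 := by
    rw [Complex.sq_norm, Complex.normSq_apply, Complex.sub_re, Complex.sub_im,
      Complex.exp_ofReal_mul_I_re, Complex.exp_ofReal_mul_I_im, Complex.ofReal_re, Complex.ofReal_im]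
    have := Real.sin_sq_add_cos_sq δ
    nlinarith
  exact lt_of_pow_lt_pow_left₀ 2 (by norm_num) hsq

theorem norm_sub_lt_of_arcIdx (z₁ z₂ w : ℂ) (h1 : ‖z₁‖ = 1) (h2 : ‖z₂‖ = 1) (hw : w * z₂ = z₁)
    (h : arcIdx z₁ = arcIdx z₂) : ‖w - ((√3 / 2 : ℝ) : ℂ)‖ < 1 / 2 := by
  have e1 := Complex.norm_mul_exp_arg_mul_I z₁
  have e2 := Complex.norm_mul_exp_arg_mul_I z₂
  rw [h1, Complex.ofReal_one, one_mul] at e1
  rw [h2, Complex.ofReal_one, one_mul] at e2
  have hw' : w = Complex.exp (((Complex.arg z₁ - Complex.arg z₂ : ℝ) : ℂ) * Complex.I) := by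
    have hne : z₂ ≠ 0 := by
      intro h0
      rw [h0, norm_zero] at h2
      exact zero_ne_one h2
    apply mul_right_cancel₀ hne
    rw [hw]
    nth_rewrite 1 [← e1]
    nth_rewrite 2 [← e2]
    rw [← Complex.exp_add]
    congr 1
    push_cast
    ring
  rw [hw']
  exact norm_exp_sub_lt _ (abs_arg_sub_lt z₁ z₂ h)

end arcs

theorem index_le [Finite G] (hT : IsUnitaryHom T) (H : Subgroup G)
    (hH : ∀ x ∈ H, ∀ y ∈ H, x * y = y * x) :
    ((smallSubgroup T).subgroupOf H).index ≤ 12 ^ Module.finrank ℂ V := by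
  classical
  let f : H → Module.End ℂ V := fun h => toEnd T (h : G)
  let W : (H → ℂ) → Submodule ℂ V := fun χ => ⨅ h, (f h).maxGenEigenspace (χ h)
  have hcomm : ∀ i j : H, Commute (f i) (f j) := by
    intro i j
    ext v
    change T i (T j v) = T j (T i v)
    have h1 : T (i * j) v = T i (T j v) := by rw [map_mul]; rfl
    have h2 : T (j * i) v = T j (T i v) := by rw [map_mul]; rfl
    rw [← h1, ← h2, hH i i.2 j j.2]
  have htop : ⨆ χ, W χ = ⊤ :=
    Module.End.iSup_iInf_maxGenEigenspace_eq_top_of_iSup_maxGenEigenspace_eq_top_of_commute f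
      (fun i j _ => hcomm i j) (fun i => Module.End.iSup_maxGenEigenspace_eq_top _)
  have hind : iSupIndep W :=
    Module.End.independent_iInf_maxGenEigenspace_of_forall_mapsTo f
      (fun i j φ => Module.End.mapsTo_maxGenEigenspace_of_comm (hcomm j i) φ)
  have hWv : ∀ χ, ∀ v ∈ W χ, ∀ h : H, T (h : G) v = χ h • v := by
    intro χ v hv h
    have h1 : v ∈ (f h).maxGenEigenspace (χ h) := (Submodule.mem_iInf _).mp hv h
    rw [(isSemisimple_toEnd (T := T) (h : G)).isFinitelySemisimple.maxGenEigenspace_eq_eigenspace]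
      at h1
    exact Module.End.mem_eigenspace_iff.mp h1
  let I := {χ // W χ ≠ ⊥}
  let _ : Fintype I := hind.fintypeNeBotOfFiniteDimensional
  have hcard : Fintype.card I ≤ Module.finrank ℂ V := hind.subtype_ne_bot_le_finrank
  let Φ : H → (I → Fin 12) := fun h χ => arcIdx (χ.1 h)
  have key : ∀ h k : H, Φ h = Φ k → h⁻¹ * k ∈ (smallSubgroup T).subgroupOf H := by
    intro h k hhk
    rw [Subgroup.mem_subgroupOf]
    apply Subgroup.subset_closure
    refine ⟨((√3 / 2 : ℝ) : ℂ), ?_⟩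
    apply norm_lt_of_spectrum hT _ _ _ (by norm_num)
    intro z hz
    obtain ⟨χ, hχ, rfl⟩ := exists_of_mem_spectrum (T ((h⁻¹ * k : H) : G)) W htop
      (fun χ => χ (h⁻¹ * k)) (fun χ v hv => hWv χ v hv (h⁻¹ * k)) z hz
    obtain ⟨v, hv, hv0⟩ := (Submodule.ne_bot_iff _).mp hχ
    have hnorm : ∀ x : H, ‖χ x‖ = 1 := by
      intro x
      have h1 := hT.norm_apply (x : G) v
      rw [hWv χ v hv x, norm_smul] at h1
      have h2 : 0 < ‖v‖ := norm_pos_iff.mpr hv0
      nlinarith
    have hmul : χ (h⁻¹ * k) * χ h = χ k := by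
      have e1 : T (((h⁻¹ * k) * h : H) : G) v = (χ (h⁻¹ * k) * χ h) • v := by
        rw [Subgroup.coe_mul, map_mul]
        change T ((h⁻¹ * k : H) : G) (T (h : G) v) = _
        rw [hWv χ v hv h, map_smul, hWv χ v hv (h⁻¹ * k), smul_smul, mul_comm]
      have e2 : (h⁻¹ * k) * h = k := by
        apply Subtype.ext
        have := hH (h⁻¹ * k : H) (h⁻¹ * k : H).2 h h.2
        rw [Subgroup.coe_mul, this]
        simp
      rw [e2, hWv χ v hv k] at e1
      have e3 : (χ k - χ (h⁻¹ * k) * χ h) • v = 0 := by rw [sub_smul, e1, sub_self]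
      rcases smul_eq_zero.mp e3 with e4 | e4
      · exact (sub_eq_zero.mp e4).symm
      · exact absurd e4 hv0
    exact norm_sub_lt_of_arcIdx (χ k) (χ h) _ (hnorm k) (hnorm h) hmul
      (congrFun hhk ⟨χ, hχ⟩).symm
  have hinj : Function.Injective
      (fun q : H ⧸ (smallSubgroup T).subgroupOf H => Φ q.out) := by
    intro q q' hqq
    rw [← QuotientGroup.out_eq' q, ← QuotientGroup.out_eq' q', QuotientGroup.eq]
    exact key _ _ hqq
  calc ((smallSubgroup T).subgroupOf H).index
      = Nat.card (H ⧸ (smallSubgroup T).subgroupOf H) := rfl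
    _ ≤ Nat.card (I → Fin 12) := Nat.card_le_card_of_injective _ hinj
    _ = 12 ^ Fintype.card I := by
        rw [Nat.card_eq_fintype_card, Fintype.card_fun, Fintype.card_fin]
    _ ≤ 12 ^ Module.finrank ℂ V := Nat.pow_le_pow_right (by norm_num) hcard

section wrapper

variable {G' : Type*} [Group G'] [Finite G']
variable {U : Type*} [AddCommGroup U] [Module ℂ U] [FiniteDimensional ℂ U]

theorem exists_invariant_core (ρ : Representation ℂ G' U) :
    ∃ c : InnerProductSpace.Core ℂ U, ∀ g v w, c.inner (ρ g v) (ρ g w) = c.inner v w := by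
  classical
  have : Fintype G' := Fintype.ofFinite G'
  let φ : U ≃ₗ[ℂ] EuclideanSpace ℂ (Fin (Module.finrank ℂ U)) :=
    (Module.finBasis ℂ U).equivFun.trans (WithLp.linearEquiv 2 ℂ (Fin (Module.finrank ℂ U) → ℂ)).symm
  refine ⟨{ inner := fun v w => ∑ g : G', ⟪φ (ρ g v), φ (ρ g w)⟫_ℂ
            conj_inner_symm := ?_
            re_inner_nonneg := ?_
            add_left := ?_
            smul_left := ?_
            definite := ?_ }, ?_⟩
  · intro x y
    simp only [map_sum, inner_conj_symm]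
  · intro x
    simp only [map_sum]
    exact Finset.sum_nonneg (fun g _ => inner_self_nonneg)
  · intro x y z
    simp only [map_add, inner_add_left, Finset.sum_add_distrib]
  · intro x y r
    simp only [map_smul, inner_smul_left, Finset.mul_sum]
  · intro x hx
    have h1 : ∑ g : G', RCLike.re ⟪φ (ρ g x), φ (ρ g x)⟫_ℂ = 0 := by
      have := congrArg RCLike.re hx
      simpa only [map_sum, map_zero] using this
    have h2 := (Finset.sum_eq_zero_iff_of_nonneg (fun g _ => inner_self_nonneg)).mp h1 1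
      (Finset.mem_univ _)
    rw [map_one] at h2
    have h3 : φ x = 0 := by
      have h4 : RCLike.re ⟪φ x, φ x⟫_ℂ = 0 := h2
      rw [inner_self_eq_norm_sq] at h4
      exact norm_eq_zero.mp (pow_eq_zero_iff (two_ne_zero) |>.mp h4)
    exact φ.map_eq_zero_iff.mp h3
  · intro h v w
    change ∑ g : G', ⟪φ (ρ g (ρ h v)), φ (ρ g (ρ h w))⟫_ℂ = ∑ g : G', ⟪φ (ρ g v), φ (ρ g w)⟫_ℂ
    apply Fintype.sum_equiv (Equiv.mulRight h)
    intro g
    simp [map_mul]

end wrapper

section main

variable {G' : Type*} [Group G'] [Finite G']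
variable {U : Type*} [AddCommGroup U] [Module ℂ U] [FiniteDimensional ℂ U]

/-- A finite complex linear group of degree `n` has an abelian normal subgroup `A` with
`|H : H ∩ A| ≤ 12 ^ n` for every abelian subgroup `H`. -/
theorem exists_abelian_normal (ρ : Representation ℂ G' U) (hinj : Function.Injective ρ) :
    ∃ A : Subgroup G', A.Normal ∧ (∀ x ∈ A, ∀ y ∈ A, x * y = y * x) ∧
      ∀ H : Subgroup G', (∀ x ∈ H, ∀ y ∈ H, x * y = y * x) →
        (A.subgroupOf H).index ≤ 12 ^ Module.finrank ℂ U := by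
  obtain ⟨c, hc⟩ := exists_invariant_core ρ
  letI : NormedAddCommGroup U := @InnerProductSpace.Core.toNormedAddCommGroup ℂ U _ _ _ c
  letI : InnerProductSpace ℂ U := InnerProductSpace.ofCore c.toCore
  let T : G' →* (U →L[ℂ] U) :=
    { toFun := fun g => LinearMap.toContinuousLinearMap (ρ g)
      map_one' := by
        ext v
        simp
      map_mul' := by
        intro a b
        ext v
        simp }
  have hT : IsUnitaryHom T := fun g v w => hc g v w
  have hTinj : Function.Injective T := by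
    intro a b hab
    apply hinj
    ext v
    exact congrArg (fun L : U →L[ℂ] U => L v) hab
  exact ⟨smallSubgroup T, smallSubgroup_normal hT, smallSubgroup_comm hT hTinj,
    fun H hH => index_le hT H hH⟩

end main

end Cfsg.Agent.Lib.Helper98.Jordan
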